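import Cfsg.Agent.Lib.Helper29.FiC.Data

set_option autoImplicit false
set_option Elab.async false

namespace Cfsg.Agent.Lib.Helper29.FiC

open Cfsg.Agent.Lib.Helper29.TcTrace Cfsg.Agent.Lib.Helper29.TcCert Cfsg.Agent.Lib.Helper29.TcPerm

theorem lblk_0 : chkPBlk P 5 31 256 288 0 0x886110864190a6084421902218c85214c30882218c8510c84298a62044310c8429864294c43142219064294c4214c62884321485318a531463214c531466210a6298812988230de210c43190431908510c642148530c6421485314c119085214c5304a6110a4298a6094c230c85314c12984619885304a611866214a6118662148619885198851142f214a62986531886310a6218a2314a3314642902410de0 = true := by decide +kernel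
theorem lblk_1 : chkPBlk P 5 31 256 288 1 0x31483105e10882110c21104432044108862190a1 = true := by decide +kernel
theorem lo_0_1 : ∀ b, 0 ≤ b → b < 1 → ∃ J, chkPBlk P 5 31 256 288 b J = true := fun b h1 h2 => by
  have hb : b = 0 := Nat.le_antisymm (Nat.le_of_lt_succ h2) h1
  subst hb; exact ⟨_, lblk_0⟩
theorem lo_1_2 : ∀ b, 1 ≤ b → b < 2 → ∃ J, chkPBlk P 5 31 256 288 b J = true := fun b h1 h2 => by
  have hb : b = 1 := Nat.le_antisymm (Nat.le_of_lt_succ h2) h1
  subst hb; exact ⟨_, lblk_1⟩
theorem lo_0_2 : ∀ b, 0 ≤ b → b < 2 → ∃ J, chkPBlk P 5 31 256 288 b J = true := fun b h1 h2 =>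
  if h : b < 1 then lo_0_1 b h1 h else lo_1_2 b (Nat.le_of_not_lt h) h2

end Cfsg.Agent.Lib.Helper29.FiC
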